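/- ALTSEC2, slot E8: sections of `E₈(q)` give groups of degree 248 with small fixed spaces. -/
import Cfsg.Agent.H40.ASSpec2
import Cfsg.Agent.H26.ASE13
import Cfsg.Agent.H65.All
import Cfsg.Agent.H46.LangCent

set_option autoImplicit false

universe u

namespace H1.AS8

open Matrix Cfsg.Lie H63 H65 H40.AS H46

attribute [local instance] tabE8 commE8

section ch
variable {D : ChevalleyDatum} [RS D] {A : Type*} [CommGroup A]

/-- A function on the roots that comes from a character of the root lattice. -/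
def IsCh (f : Rt D → A) : Prop := ∀ r, f r = ev D (fun i => f (simpleR i)) (rt r)

theorem isCh_chi (c : Fin D.rank → A) : IsCh fun r : Rt D => chi D c r := fun r => chi_eq_prod c r

theorem IsCh.comp {f : Rt D → A} (h : IsCh f) {w : Equiv.Perm (Rt D)} (hw : IsLin w) :
    IsCh fun r => f (w r) := fun r => by
  beta_reduce
  rw [h (w r), hw.rt_apply, ev_sum]
  exact Finset.prod_congr rfl fun i _ => by rw [ev_smul, ← h]

theorem IsCh.refl {f : Rt D → A} (h : IsCh f) (a r : Rt D) :
    f r * f (negR (refl a r)) = f a ^ D.pairing a r := by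
  rw [h r, h (negR _), h a, ← ev_add, ← ev_smul, rt_negR, rt_refl]
  congr 1; abel

end ch

theorem half {X : Type*} [DecidableEq X] (S Y : Finset X) (σ : X → X)
    (h : ∀ r ∈ S, r ∈ Y ∨ (σ r ∈ Y ∧ σ (σ r) = r)) : S.card ≤ 2 * Y.card := by
  have h1 : S ⊆ Y ∪ Y.image σ := fun r hr => (h r hr).elim (Finset.mem_union_left _)
    fun k => Finset.mem_union_right _ (Finset.mem_image.2 ⟨_, k.1, k.2⟩)
  have h2 := (Finset.card_le_card h1).trans (Finset.card_union_le _ _)
  have h3 := Finset.card_image_le (s := Y) (f := σ)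
  omega

/-- The highest root. -/
def th : Rt chevE8 := ⟨239, by decide⟩
/-- The last node. -/
def i7 : Fin chevE8.rank := ⟨7, by decide⟩

theorem len1 : ∀ r : Rt chevE8, certE8.lenc r = 1 := by decide +kernel
theorem pair_th : ∀ r : Rt chevE8, chevE8.pairing th r = certE8.rtc r 7 := by decide +kernel
theorem card112 : (Finset.univ.filter fun r : Rt chevE8 =>
    (certE8.rtc r 7).natAbs = 1).card = 112 := by decide +kernel
theorem card176 : ∀ i : Fin chevE8.rank, i ≠ i7 → (Finset.univ.filter fun r : Rt chevE8 =>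
    (certE8.rtc r 7).natAbs = 1 ∨ certE8.rtc r 7 = 0 ∧ (chevE8.cartan i r).natAbs = 1).card = 176 := by
  decide +kernel
theorem th7 : certE8.rtc th 7 = 2 := by decide +kernel
theorem si7 : ∀ i : Fin chevE8.rank, i ≠ i7 → certE8.rtc (chevE8.simple i) 7 = 0 := by decide +kernel

theorem zpow_ne {A : Type*} [CommGroup A] {a : A} (h : a ≠ 1) {n : ℤ} (hn : n.natAbs = 1) :
    a ^ n ≠ 1 := by
  rcases Int.natAbs_eq_iff.1 hn with rfl | rfl <;> simpa using h

theorem moved_th {A : Type*} [CommGroup A] [DecidableEq A] {f : Rt chevE8 → A} (h : IsCh f)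
    (h1 : f th ≠ 1) : 88 ≤ (Finset.univ.filter fun r => f r ≠ 1).card := by
  have key : ∀ a r : Rt chevE8, f a ≠ 1 → (chevE8.pairing a r).natAbs = 1 →
      f r ≠ 1 ∨ f (negR (refl a r)) ≠ 1 := fun a r ha hr => by
    by_contra hc
    push Not at hc
    have := h.refl a r
    rw [hc.1, hc.2, one_mul] at this
    exact zpow_ne ha hr this.symm
  by_cases hb : ∃ i, i ≠ i7 ∧ f (simpleR i) ≠ 1
  · obtain ⟨i, hi, hb⟩ := hb
    have := half (Finset.univ.filter fun r : Rt chevE8 => (certE8.rtc r 7).natAbs = 1 ∨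
      certE8.rtc r 7 = 0 ∧ (chevE8.cartan i r).natAbs = 1) (Finset.univ.filter fun r => f r ≠ 1)
      (fun r => if chevE8.pairing th r = 0 then negR (refl (simpleR i) r) else negR (refl th r))
      fun r hr => by
        simp only [Finset.mem_filter, Finset.mem_univ, true_and] at hr ⊢
        rw [← pair_th] at hr
        rcases hr with hr | ⟨h0, hr⟩
        · have h0 : chevE8.pairing th r ≠ 0 := fun e => by rw [e] at hr; exact absurd hr (by decide)
          have h2 : chevE8.pairing th (negR (refl th r)) ≠ 0 := by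
            rwa [negR_val, pairing_negR_right, pairing_self_refl, neg_neg]
          rw [if_neg h0, if_neg h2, refl_negR_right, refl_refl, negR_negR]
          exact (key th r h1 hr).imp id fun k => ⟨k, rfl⟩
        · have h2 : chevE8.pairing th (negR (refl (simpleR i) r)) = 0 := by
            rw [← cop_rt, rt_negR, rt_refl, cop_neg, cop_sub, cop_smul, cop_rt, cop_rt, h0, pair_th,
              simpleR_val, si7 i hi]
            simp
          rw [if_pos h0, if_pos h2, refl_negR_right, refl_refl, negR_negR]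
          exact (key (simpleR i) r hb ((congrArg Int.natAbs (pairing_simple i r)).trans hr)).imp id
            fun k => ⟨k, rfl⟩
    rw [card176 i hi] at this
    omega
  · push Not at hb
    have e : ∀ r, f r = f (simpleR i7) ^ certE8.rtc r 7 := fun r => by
      rw [h r, ev, Finset.prod_eq_single i7 (fun j _ hj => by rw [hb j hj, _root_.one_zpow]) (by simp)]
      rfl
    have h2 : f (simpleR i7) ≠ 1 := fun k => h1 (by rw [e, k, _root_.one_zpow])
    have := Finset.card_le_card (s := Finset.univ.filter fun r : Rt chevE8 =>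
      (certE8.rtc r 7).natAbs = 1) (t := Finset.univ.filter fun r => f r ≠ 1) fun r hr => by
        simp only [Finset.mem_filter, Finset.mem_univ, true_and] at hr ⊢
        rw [e]
        exact zpow_ne h2 hr
    rw [card112] at this
    omega

theorem moved {A : Type*} [CommGroup A] [DecidableEq A] {f : Rt chevE8 → A} (h : IsCh f)
    {a : Rt chevE8} (h1 : f a ≠ 1) : 88 ≤ (Finset.univ.filter fun r => f r ≠ 1).card := by
  obtain ⟨w, hw⟩ := exists_W_apply_eq_of_len_eq (r := th) (s := a) ((len1 _).trans (len1 _).symm)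
  refine (moved_th (h.comp (isLin_W w)) (by rwa [hw])).trans (le_of_eq ?_)
  exact Finset.card_equiv w.1 fun r => by simp

theorem eig_le {k ι : Type} [Field k] [Fintype ι] [DecidableEq ι] [DecidableEq k] {s g : GL ι k}
    {d : ι → k} (hd : (g * s * g⁻¹).val = diagonal d) :
    Module.finrank k (Module.End.eigenspace (Matrix.toLin' s.val) 1) +
      (Finset.univ.filter fun j => d j ≠ 1).card ≤ Fintype.card ι := by
  let f : Module.End.eigenspace (Matrix.toLin' s.val) 1 →ₗ[k] ({j // d j = 1} → k) :=
    (LinearMap.funLeft _ _ Subtype.val).comp ((Matrix.toLin' g.val).comp (Submodule.subtype _))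
  have hf : Function.Injective f := by
    rw [injective_iff_map_eq_zero]
    rintro ⟨v, hv⟩ h2
    rw [Module.End.mem_eigenspace_iff, one_smul, Matrix.toLin'_apply] at hv
    have h3 : diagonal d *ᵥ (g.val *ᵥ v) = g.val *ᵥ v := by
      rw [← hd, mulVec_mulVec, ← Units.val_mul, inv_mul_cancel_right, Units.val_mul, ← mulVec_mulVec, hv]
    have h4 : g.val *ᵥ v = 0 := funext fun j => by
      by_cases hj : d j = 1
      · exact congrFun h2 ⟨j, hj⟩
      · have := congrFun h3 j
        rw [mulVec_diagonal] at this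
        exact (mul_left_eq_self₀.1 this).resolve_left hj
    have h5 := congrArg (g⁻¹).val.mulVec h4
    rw [mulVec_mulVec, Units.inv_mul, one_mulVec, mulVec_zero] at h5
    exact Subtype.ext h5
  have h6 := LinearMap.finrank_le_finrank_of_injective hf
  rw [Module.finrank_fintype_fun_eq_card, Fintype.card_subtype] at h6
  have h7 := Finset.card_filter_add_card_filter_not (s := (Finset.univ : Finset ι))
    (fun j => d j = 1)
  rw [Finset.card_univ] at h7
  simp only [ne_eq]
  omega

variable {p : ℕ} [Fact p.Prime]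

theorem conj_tor {s : chevE8.group (Kb p)} {e : ℕ} (he : (e : Kb p) ≠ 0) (h : s ^ e = 1) :
    ∃ g c, c ^ e = 1 ∧ g * s * g⁻¹ = H67.torG chevE8 (Kb p) c := by
  obtain ⟨σ, hσ, -, -, halg⟩ := H67.exists_frobAut (ZMod p)
  exact H67.exists_conj_tor_coprime (D := chevE8) (k := Kb p) (N := 1) Fintype.one_lt_card hσ halg
    (fun d hd => H64.kerE8.pow_eq_one' hd) he (Nat.coprime_one_right e) h

theorem exists_chi_ne {s g : chevE8.group (Kb p)} {c : Fin chevE8.rank → (Kb p)ˣ} (h1 : s ≠ 1)
    (hg : g * s * g⁻¹ = H67.torG chevE8 (Kb p) c) :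
    ∃ i : Fin chevE8.rank, chi chevE8 c (chevE8.simple i) ≠ 1 := by
  by_contra hc
  push Not at hc
  exact h1 (conj_eq_one_iff.1 (hg.trans (H67.torG_eq_one_iff.2 hc)))

theorem card_idx : Fintype.card chevE8.Idx = 248 := by
  rw [Fintype.card_sum, Fintype.card_fin, Fintype.card_fin]; rfl

theorem fix_le {s : chevE8.group (Kb p)} (h1 : s ≠ 1) {e : ℕ} (he : (e : Kb p) ≠ 0) (h : s ^ e = 1) :
    Module.finrank (Kb p) (Module.End.eigenspace
      (Matrix.toLin' (s : GL chevE8.Idx (Kb p)).val) 1) + 88 ≤ 248 := by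
  classical
  obtain ⟨g, c, -, hg⟩ := conj_tor he h
  obtain ⟨i, hi⟩ := exists_chi_ne h1 hg
  have h2 := moved (isCh_chi c) (a := simpleR i) hi
  have h3 := eig_le (s := (s : GL chevE8.Idx (Kb p))) (g := g)
    ((congrArg (fun x : chevE8.group (Kb p) => (x : GL chevE8.Idx (Kb p)).val) hg).trans
      (H64.tor_val c))
  rw [card_idx] at h3
  refine le_trans (Nat.add_le_add_left (h2.trans ?_) _) h3
  refine Finset.card_le_card_of_injOn Sum.inr (fun r hr => ?_) Sum.inr_injective.injOn
  simp only [Finset.coe_filter, Finset.mem_univ, true_and, Set.mem_ofPred_eq, Sum.elim_inr] at hr ⊢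
  exact fun e => hr (Units.ext e)

theorem cov {D : ChevalleyDatum} [RS D] [Tab D] {F : Type u} [Field F] [Fintype F] [CharP F p] {r m : ℕ}
    (hm : m ≤ r) {H : Subgroup (D.group F)} {K : Subgroup H} [K.Normal]
    (hK : Nonempty (H ⧸ K ≃* alternatingGroup (Fin r))) :
    ∃ L : Subgroup (D.group (Kb p)), Finite L ∧
      ∃ π : L →* Equiv.Perm (Fin m), π.range = alternatingGroup (Fin m) := by
  obtain ⟨L, f, hf⟩ := H55.Alt.exists_onto hm hK
  let _ := ZMod.algebra F p
  let ι : F →ₐ[ZMod p] Kb p := IsAlgClosed.lift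
  let M : Subgroup L := (alternatingGroup (Fin m)).comap f
  let j : M →* D.group (Kb p) :=
    (mapG D ι.toRingHom).comp (H.subtype.comp (L.subtype.comp M.subtype))
  have hj : Function.Injective j := fun a b e => Subtype.ext (Subtype.ext (Subtype.ext
    (Subtype.ext (Units.ext (Matrix.ext fun i j => ι.toRingHom.injective (congrArg
      (fun g : D.group (Kb p) => (g : GL D.Idx (Kb p)).val i j) e))))))
  refine ⟨j.range, Finite.of_surjective _ j.rangeRestrict_surjective,
    (f.comp M.subtype).comp (MonoidHom.ofInjective hj).symm.toMonoidHom, ?_⟩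
  refine le_antisymm ?_ fun σ hσ => ?_
  · rintro _ ⟨a, rfl⟩
    exact ((MonoidHom.ofInjective hj).symm a).2
  · obtain ⟨b, rfl⟩ := hf σ hσ
    exact ⟨MonoidHom.ofInjective hj ⟨b, hσ⟩, by simp⟩

/-- The natural representation. -/
noncomputable def nat {G k ι : Type} [Group G] [Field k] [Fintype ι] [DecidableEq ι]
    (j : G →* GL ι k) : Representation k G (ι → k) :=
  (Matrix.toLinAlgEquiv' (R := k) (n := ι)).toMonoidHom.comp ((Units.coeHom _).comp j)

theorem nat_apply {G k ι : Type} [Group G] [Field k] [Fintype ι] [DecidableEq ι]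
    (j : G →* GL ι k) (g : G) : nat j g = Matrix.toLin' (j g).val := rfl

theorem nat_eq_one {G k ι : Type} [Group G] [Field k] [Fintype ι] [DecidableEq ι]
    {j : G →* GL ι k} {g : G} (h : nat j g = 1) : j g = 1 :=
  Units.ext ((Matrix.toLinAlgEquiv' (R := k) (n := ι)).injective (h.trans (map_one _).symm))

theorem not_noMod {D : ChevalleyDatum} [RS D] [Tab D] {F : Type u} [Field F] [Fintype F] [CharP F p]
    {r m N b : ℕ} (hm : m ≤ r) {H : Subgroup (D.group F)} {K : Subgroup H} [K.Normal]
    (hK : Nonempty (H ⧸ K ≃* alternatingGroup (Fin r))) (hc : Fintype.card D.Idx = N)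
    (hf : ∀ s : D.group (Kb p), s ≠ 1 → ∀ e : ℕ, (e : Kb p) ≠ 0 → s ^ e = 1 → Module.finrank (Kb p)
      (Module.End.eigenspace (Matrix.toLin' (s : GL D.Idx (Kb p)).val) 1) + b ≤ N) :
    ¬ NoMod p m N b := by
  intro hN
  obtain ⟨L, _, π, hπ⟩ := cov (p := p) hm hK
  refine hN L π hπ _ (nat ((D.group (Kb p)).subtype.comp L.subtype))
    (by rw [Module.finrank_fintype_fun_eq_card, hc])
    (fun g hg => Subtype.ext (Subtype.ext (nat_eq_one hg))) fun s hs e he h1 => ?_
  exact hf s (fun e => hs (Subtype.ext e)) e he (congrArg Subtype.val h1)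

theorem jobE8 : JobE8.{u} := fun _ _ _ _ _ _ _ _ hm _ _ _ hK =>
  not_noMod hm hK card_idx fun _ h1 _ he h => fix_le h1 he h

end H1.AS8
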