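/- Tower O7, slot Ext: a full `k`-form extends to the whole space. -/
import Cfsg.Agent.H31.O7A

set_option autoImplicit false

namespace H1.O7E

open H56 QuadraticMap Module H31.O7

universe u

variable {K : Type u} [Field K] {V : Type u} [AddCommGroup V] [Module K V]
  {Q : QuadraticForm K V} {k : Subfield K} {N : K} {Φ : Set V}

theorem ksmul (a : k) (x : V) : a • x = (a : K) • x := rfl

theorem polar_mem {E : Submodule k V} (hE : ∀ x ∈ E, Q x / N ∈ k) {x y : V} (hx : x ∈ E)
    (hy : y ∈ E) : polar Q x y / N ∈ k := by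
  rw [polar, sub_div, sub_div]
  exact k.sub_mem (k.sub_mem (hE _ (E.add_mem hx hy)) (hE _ hx)) (hE _ hy)

theorem polar_sub_val {E : Submodule k V} (hE : ∀ x ∈ E, Q x / N ∈ k) (x y : E) :
    ((polar (fun z : E => (⟨Q z / N, hE z z.2⟩ : k)) x y : k) : K) = polar Q (x : V) y / N := by
  simp [polar, sub_div]

/-- The form `Q / N` on a `k`-subspace. -/
def qf (Q : QuadraticForm K V) (N : K) (E : Submodule k V) (hE : ∀ x ∈ E, Q x / N ∈ k) :
    QuadraticForm k E :=
  QuadraticMap.ofPolar (fun z : E => (⟨Q z / N, hE z z.2⟩ : k))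
    (fun a x => Subtype.ext (by
      change Q ((a : K) • (x : V)) / N = ((a * a : k) : K) * (Q x / N)
      rw [Q_smul]; push_cast; ring))
    (fun x x' y => Subtype.ext (by
      rw [Subfield.coe_add, polar_sub_val hE, polar_sub_val hE, polar_sub_val hE,
        Submodule.coe_add, polar_add_left, add_div]))
    (fun a x y => Subtype.ext (by
      rw [smul_eq_mul, Subfield.coe_mul, polar_sub_val hE, polar_sub_val hE,
        Submodule.coe_smul, ksmul, polar_smul_left, smul_eq_mul, mul_div_assoc]))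

theorem qf_val {E : Submodule k V} (hE : ∀ x ∈ E, Q x / N ∈ k) (x : E) :
    ((qf Q N E hE x : k) : K) = Q x / N := rfl

theorem qf_polar {E : Submodule k V} (hE : ∀ x ∈ E, Q x / N ∈ k) (x y : E) :
    ((polar (qf Q N E hE) x y : k) : K) = polar Q (x : V) y / N := polar_sub_val hE x y

theorem qf_refl {E : Submodule k V} (hE : ∀ x ∈ E, Q x / N ∈ k) (hN : N ≠ 0) (x y : E) :
    ((refl (qf Q N E hE) x y : E) : V) = refl Q x y := by
  rw [refl_apply, refl_apply, Submodule.coe_sub, Submodule.coe_smul, ksmul, Subfield.coe_mul,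
    Subfield.coe_inv, qf_val, qf_polar]
  congr 2
  rw [inv_div, div_eq_mul_inv N, div_eq_mul_inv _ N]
  linear_combination (Q x)⁻¹ * polar Q (x : V) y * mul_inv_cancel₀ hN

theorem qf_polar_eq_zero {E : Submodule k V} (hE : ∀ x ∈ E, Q x / N ∈ k) (hN : N ≠ 0) (x y : E) :
    polar (qf Q N E hE) x y = 0 ↔ polar Q (x : V) y = 0 := by
  rw [← ZeroMemClass.coe_eq_zero, qf_polar, div_eq_zero_iff, or_iff_left hN]

theorem qf_nd {Λ : Submodule k V} (h : Fm Q Φ k N Λ) : (qf Q N Λ h.val).polarBilin.Nondegenerate :=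
  nondegenerate_of_polar fun x hx => Subtype.ext (h.nd x x.2 fun y hy =>
    (qf_polar_eq_zero h.val h.ne x ⟨y, hy⟩).1 (hx _))

theorem two_k (h : (2 : K) ≠ 0) : (2 : k) ≠ 0 := fun e => h (congrArg Subtype.val e)

/-- Orthogonal to the form. -/
def Ot (Q : QuadraticForm K V) (Λ : Submodule k V) (f : V) : Prop := ∀ x ∈ Λ, polar Q x f = 0

theorem Ot.span {Λ : Submodule k V} {f : V} (h : Ot Q Λ f) {z : V}
    (hz : z ∈ Submodule.span K (Λ : Set V)) : polar Q z f = 0 :=
  mem_perp.1 (mem_perp_span.2 h) z hz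

variable [Finite K] [FiniteDimensional K V]

theorem fdE (E : Submodule k V) : FiniteDimensional k E :=
  have : Finite V := Module.finite_of_finite K
  Module.Finite.of_finite

/-- Riesz representation in a form. -/
theorem riesz {Λ : Submodule k V} (h : Fm Q Φ k N Λ) {z : V}
    (hz : ∀ x ∈ Λ, polar Q z x / N ∈ k) : ∃ y ∈ Λ, Ot Q Λ (z - y) := by
  have := fdE Λ
  let φ : Module.Dual k Λ :=
    { toFun := fun x => ⟨polar Q z x / N, hz x x.2⟩
      map_add' := fun x y => Subtype.ext (by simp [polar_add_right, add_div])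
      map_smul' := fun a x => Subtype.ext (by
        change polar Q z ((a : K) • (x : V)) / N = (a : K) * (polar Q z x / N)
        rw [polar_smul_right, smul_eq_mul, mul_div_assoc]) }
  let y := (LinearMap.BilinForm.toDual _ (qf_nd h)).symm φ
  refine ⟨y, y.2, fun x hx => ?_⟩
  have e : polar (qf Q N Λ h.val) y ⟨x, hx⟩ = φ ⟨x, hx⟩ :=
    LinearMap.BilinForm.apply_toDual_symm_apply (hB := qf_nd h) φ ⟨x, hx⟩
  have e2 := congrArg Subtype.val e
  rw [qf_polar] at e2
  have e3 : polar Q (y : V) x = polar Q z x := by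
    have := (div_left_inj' h.ne).1 e2
    exact this
  rw [polar_sub_right, polar_comm Q x z, polar_comm Q x, e3, sub_self]

omit [Finite K] [FiniteDimensional K V] in
theorem val_sup {Λ : Submodule k V} (h : Fm Q Φ k N Λ) {f : V} (hf : Ot Q Λ f)
    (hq : Q f / N ∈ k) : ∀ x ∈ Λ ⊔ (k ∙ f), Q x / N ∈ k := fun x hx => by
  obtain ⟨y, hy, z, hz, rfl⟩ := Submodule.mem_sup.1 hx
  obtain ⟨a, rfl⟩ := Submodule.mem_span_singleton.1 hz
  rw [Q_add, ksmul, Q_smul, polar_smul_right, hf y hy, smul_zero, add_zero, add_div, mul_div_assoc]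
  exact k.add_mem (h.val y hy) (k.mul_mem (k.mul_mem a.2 a.2) hq)

/-- One step, in terms of the large field. -/
theorem step (hS : Step.{u}) (R : RS Q Φ) {Λ : Submodule k V} (h : Fm Q Φ k N Λ)
    (hd : 5 ≤ Nat.card k ∧ 3 ≤ finrank k Λ ∨ 5 ≤ finrank k Λ) {f y : V} (f0 : f ≠ 0)
    (hf : Ot Q Λ f) (hq : Q f / N ∈ k) (hy : y ∈ Λ) (y0 : y ≠ 0) (hr : y + f ∈ Φ) :
    ∀ x ∈ Λ ⊔ (k ∙ f), ∀ t ∈ k, t ≠ 0 → Q x = N * t ^ 2 → x ∈ Φ := by
  intro x hx t ht t0 e
  set E := Λ ⊔ (k ∙ f) with hE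
  have := fdE E
  have hv := val_sup h hf hq
  have fE : f ∈ E := Submodule.mem_sup_right (Submodule.mem_span_singleton_self f)
  have hN := h.ne
  refine hS k E (qf Q N E hv) inferInstance (two_k R.two) (Λ.comap E.subtype) ⟨f, fE⟩
    (Subtype.val ⁻¹' Φ) ⟨?_, ?_⟩ (fun e => f0 (congrArg Subtype.val e)) ?_ ?_ ?_ ?_ ?_ ?_ ?_ ?_
    ⟨x, hx⟩ ⟨t, ht⟩ (fun e => t0 (congrArg Subtype.val e)) ?_
  · rw [Submodule.disjoint_def]
    intro z hz hz'
    obtain ⟨a, rfl⟩ := Submodule.mem_span_singleton.1 hz'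
    refine Subtype.ext (h.nd _ hz fun w hw => ?_)
    change polar Q ((a : K) • f) w = 0
    rw [polar_smul_left, polar_comm, hf w hw, smul_zero]
  · rw [codisjoint_iff, eq_top_iff]
    rintro ⟨z, hz⟩ -
    obtain ⟨w, hw, z', hz', rfl⟩ := Submodule.mem_sup.1 hz
    obtain ⟨a, rfl⟩ := Submodule.mem_span_singleton.1 hz'
    exact Submodule.mem_sup.2 ⟨⟨w, Submodule.mem_sup_left hw⟩, hw, a • ⟨f, fE⟩,
      Submodule.smul_mem _ _ (Submodule.mem_span_singleton_self _), rfl⟩
  · exact fun z hz => (qf_polar_eq_zero hv hN _ _).2 (hf z hz)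
  · exact fun z hz H => Subtype.ext (h.nd z hz fun w hw =>
      (qf_polar_eq_zero hv hN z ⟨w, Submodule.mem_sup_left hw⟩).1 (H _ hw))
  · rwa [(Submodule.comapSubtypeEquivOfLe (le_sup_left : Λ ≤ E)).finrank_eq]
  · intro v hv' e
    have := congrArg Subtype.val e
    rw [qf_val] at this
    exact div_ne_zero (R.ne v hv') hN this
  · intro a ha b hb
    change ((refl _ a b : E) : V) ∈ Φ
    rw [qf_refl hv hN]
    exact R.inv _ ha _ hb
  · exact fun v hv' a a0 => R.smul hv' fun e => a0 (Subtype.ext e)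
  · intro z hz s s0 e
    have := congrArg Subtype.val e
    rw [qf_val, div_eq_iff hN] at this
    exact h.full z hz s s.2 (fun e => s0 (Subtype.ext e)) (by rw [this]; push_cast; ring)
  · exact ⟨⟨y, Submodule.mem_sup_left hy⟩, hy, fun e => y0 (congrArg Subtype.val e), hr⟩
  · refine Subtype.ext ?_
    rw [qf_val, div_eq_iff hN]
    push_cast
    rw [e]; ring

/-- A root which is not orthogonal to the form decomposes after scaling. -/
theorem decomp {Λ : Submodule k V} (h : Fm Q Φ k N Λ) (hR : Rat Q Φ k)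
    (hd : 5 ≤ Nat.card k ∧ 3 ≤ finrank k Λ ∨ 5 ≤ finrank k Λ) {r : V} (hr : r ∈ Φ)
    (ho : ¬ Ot Q Λ r) : ∃ a : K, a ≠ 0 ∧ ∃ y ∈ Λ, y ≠ 0 ∧ ∃ f, Ot Q Λ f ∧ Q f / N ∈ k ∧
      Q (a • r) / N ∈ k ∧ a • r = y + f := by
  have ho' : ∃ x ∈ Λ, polar Q r x ≠ 0 := by
    by_contra! e
    exact ho fun x hx => by rw [polar_comm]; exact e x hx
  obtain ⟨a, a0, h1, h2⟩ := hR N Λ h (by omega) r hr ho'
  obtain ⟨y, hy, h3⟩ := riesz h h2
  refine ⟨a, a0, y, hy, ?_, _, h3, ?_, h1, by abel⟩
  · rintro rfl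
    refine ho fun x hx => ?_
    have := h3 x hx
    rw [sub_zero, polar_smul_right, smul_eq_mul] at this
    exact (mul_eq_zero.1 this).resolve_left a0
  · have e : Q (a • r) = Q y + Q (a • r - y) := by
      conv_lhs => rw [show a • r = y + (a • r - y) by abel]
      rw [Q_add, h3 y hy, add_zero]
    rw [eq_sub_of_add_eq' e.symm, sub_div]
    exact k.sub_mem h1 (h.val y hy)

/-- A non-singular orthogonal component gives a larger form. -/
theorem larger (hS : Step.{u}) (R : RS Q Φ) {Λ : Submodule k V} (h : Fm Q Φ k N Λ)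
    (hd : 5 ≤ Nat.card k ∧ 3 ≤ finrank k Λ ∨ 5 ≤ finrank k Λ) {f y : V} (f0 : Q f ≠ 0)
    (hf : Ot Q Λ f) (hq : Q f / N ∈ k) (hy : y ∈ Λ) (y0 : y ≠ 0) (hr : y + f ∈ Φ) :
    Fm Q Φ k N (Λ ⊔ (k ∙ f)) ∧ Λ < Λ ⊔ (k ∙ f) := by
  have f0' : f ≠ 0 := by rintro rfl; simp at f0
  have fE : f ∈ Λ ⊔ (k ∙ f) := Submodule.mem_sup_right (Submodule.mem_span_singleton_self f)
  refine ⟨⟨h.ne, val_sup h hf hq, fun x hx H => ?_, step hS R h hd f0' hf hq hy y0 hr⟩,
    lt_of_le_of_ne le_sup_left fun e => f0' (h.nd f (e ▸ fE) fun w hw => ?_)⟩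
  · obtain ⟨w, hw, z, hz, rfl⟩ := Submodule.mem_sup.1 hx
    obtain ⟨a, rfl⟩ := Submodule.mem_span_singleton.1 hz
    have e1 := H f fE
    rw [polar_add_left, hf w hw, ksmul, polar_smul_left, polar_self', zero_add, smul_eq_mul] at e1
    have a0 : (a : K) = 0 := (mul_eq_zero.1 e1).resolve_right (mul_ne_zero R.two f0)
    rw [ksmul, a0, zero_smul, add_zero] at H ⊢
    exact h.nd w hw fun v hv => H v (Submodule.mem_sup_left hv)
  · rw [polar_comm]; exact hf w hw

/-- For a maximal form the orthogonal components of roots are singular. -/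
theorem sing (hS : Step.{u}) (R : RS Q Φ) {Λ : Submodule k V} (h : Fm Q Φ k N Λ) (hR : Rat Q Φ k)
    (hd : 5 ≤ Nat.card k ∧ 3 ≤ finrank k Λ ∨ 5 ≤ finrank k Λ)
    (hm : ∀ Λ' : Submodule k V, Fm Q Φ k N Λ' → ¬ Λ < Λ') {z F : V}
    (hz : z ∈ Submodule.span K (Λ : Set V)) (hF : Ot Q Λ F) (hr : z + F ∈ Φ)
    (ho : ¬ Ot Q Λ z) : Q F = 0 := by
  obtain ⟨a, a0, y, hy, y0, f, hf, hq, -, e⟩ := decomp h hR hd hr (fun H => ho fun x hx => by
    have := H x hx
    rwa [polar_add_right, hF x hx, add_zero] at this)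
  have f0 : Q f = 0 := by
    by_contra f0
    obtain ⟨h1, h2⟩ := larger hS R h hd f0 hf hq hy y0 (e ▸ R.smul hr a0)
    exact hm _ h1 h2
  have wU : a • z - y ∈ Submodule.span K (Λ : Set V) :=
    Submodule.sub_mem _ (Submodule.smul_mem _ _ hz) (Submodule.subset_span hy)
  have we : a • z - y = f - a • F := by linear_combination (norm := module) e
  have wo : Ot Q Λ (a • z - y) := fun x hx => by
    rw [we, polar_sub_right, polar_smul_right, hf x hx, hF x hx, smul_zero, sub_zero]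
  have w0 : Q (a • z - y) = 0 := by
    have := wo.span wU
    rw [polar_self'] at this
    exact (mul_eq_zero.1 this).resolve_left R.two
  have e2 : a • F = f - (a • z - y) := by rw [we]; abel
  have e3 : Q (a • F) = 0 := by
    rw [e2, Q_sub, f0, w0, polar_comm, hf.span wU]; ring
  rw [Q_smul] at e3
  exact (mul_eq_zero.1 e3).resolve_left (mul_ne_zero a0 a0)

/-- A vector of norm `N` outside a line. -/
theorem exists_norm (hF : JobQF.{u}) (R : RS Q Φ) {Λ : Submodule k V} (h : Fm Q Φ k N Λ)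
    (hd : 5 ≤ Nat.card k ∧ 3 ≤ finrank k Λ ∨ 5 ≤ finrank k Λ) {y : V} (hy : y ∈ Λ) :
    ∃ v ∈ Λ, Q v = N ∧ v ∉ (k ∙ y) := by
  have := fdE Λ
  have e := (hF k Λ (qf Q N Λ h.val) inferInstance (two_k R.two) (qf_nd h) (by omega)).1 1
    one_ne_zero
  by_contra! H
  have h1 : (⊤ : Submodule k Λ) ≤ (k ∙ (⟨y, hy⟩ : Λ)) := by
    rw [← e, Submodule.span_le]
    intro v hv
    have h2 := congrArg Subtype.val (show qf Q N Λ h.val v = 1 from hv)
    rw [qf_val, div_eq_iff h.ne] at h2
    obtain ⟨a, ha⟩ := Submodule.mem_span_singleton.1 (H v v.2 (by simpa using h2))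
    exact Submodule.mem_span_singleton.2 ⟨a, Subtype.ext ha⟩
  have h2 := Submodule.finrank_mono h1
  have h3 := finrank_span_le_card (R := k) ({(⟨y, hy⟩ : Λ)} : Set Λ)
  rw [finrank_top] at h2
  simp only [Set.toFinset_singleton, Finset.card_singleton] at h3
  omega

/-- A maximal form spans the space. -/
theorem span_top (hF : JobQF.{u}) (hS : Step.{u}) (R : RS Q Φ) {Λ : Submodule k V}
    (h : Fm Q Φ k N Λ) (hR : Rat Q Φ k)
    (hd : 5 ≤ Nat.card k ∧ 3 ≤ finrank k Λ ∨ 5 ≤ finrank k Λ)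
    (hm : ∀ Λ' : Submodule k V, Fm Q Φ k N Λ' → ¬ Λ < Λ') :
    Submodule.span K (Λ : Set V) = ⊤ := by
  by_contra hU
  have hN := h.ne
  -- a root with two non-zero components
  obtain ⟨r, hr, r1, r2⟩ : ∃ r ∈ Φ, r ∉ Submodule.span K (Λ : Set V) ∧ ¬ Ot Q Λ r := by
    by_contra! H
    rcases R.irr' (Submodule.span K (Λ : Set V)) (fun v hv => by
      by_cases e : v ∈ Submodule.span K (Λ : Set V)
      · exact .inl e
      · exact .inr (mem_perp_span.2 (H v hv e))) with e | e
    · obtain ⟨v, hv, e1, -⟩ := exists_norm hF R h hd Λ.zero_mem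
      have : v ∈ Submodule.span K (Λ : Set V) := Submodule.subset_span hv
      rw [e, Submodule.mem_bot] at this
      rw [this, map_zero] at e1
      exact hN e1.symm
    · exact hU e
  obtain ⟨a, a0, y, hy, y0, f, hf, hq, -, e⟩ := decomp h hR hd hr r2
  have f0 : f ≠ 0 := by
    rintro rfl
    refine r1 ?_
    rw [← inv_smul_smul₀ a0 r, e, add_zero]
    exact Submodule.smul_mem _ _ (Submodule.subset_span hy)
  have nO : ∀ w ∈ Λ, w ≠ 0 → ¬ Ot Q Λ w := fun w hw w0 H =>
    w0 (h.nd w hw fun x hx => by rw [polar_comm]; exact H x hx)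
  have yf : y + f ∈ Φ := e ▸ R.smul hr a0
  have Qf : Q f = 0 := sing hS R h hR hd hm (Submodule.subset_span hy) hf yf (nO y hy y0)
  have Qv : ∀ v ∈ Λ, ∀ c : K, Q (v + c • f) = Q v := fun v hv c => by
    rw [Q_add, Q_smul, polar_smul_right, hf v hv, Qf]; simp
  have line : ∀ v ∈ Λ, Q v = N → ∀ c ∈ k, v + c • f ∈ Φ := fun v hv e c hc =>
    step hS R h hd f0 hf hq hy y0 yf _ (Submodule.add_mem_sup hv
      (Submodule.mem_span_singleton.2 ⟨⟨c, hc⟩, rfl⟩)) 1 k.one_mem one_ne_zero
      (by rw [Qv v hv, e]; ring)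
  have ff : polar Q f f = 0 := by rw [polar_self', Qf, mul_zero]
  -- a root which is not orthogonal to `f`
  obtain ⟨s, hs, s1⟩ : ∃ s ∈ Φ, polar Q f s ≠ 0 := by
    by_contra! H
    rcases R.irr' (perp Q (K ∙ f)) (fun v hv => .inl (mem_perp_span_singleton.2 (H v hv)))
      with e | e
    · have : f ∈ perp Q (K ∙ f) := mem_perp_span_singleton.2 ff
      rw [e, Submodule.mem_bot] at this
      exact f0 this
    · exact f0 (R.nd.1 f fun x => mem_perp_span_singleton.1 (e ▸ Submodule.mem_top))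
  obtain ⟨s, hs, s1, s2⟩ : ∃ s ∈ Φ, polar Q f s ≠ 0 ∧ ¬ Ot Q Λ s := by
    by_cases s2 : Ot Q Λ s
    · obtain ⟨v, hv, e1, -⟩ := exists_norm hF R h hd Λ.zero_mem
      have fv : polar Q f v = 0 := by rw [polar_comm]; exact hf v hv
      refine ⟨_, R.inv _ (line v hv e1 1 k.one_mem) s hs, ?_, fun H => ?_⟩
      · rw [refl_apply, polar_sub_right, polar_smul_right, polar_add_right, polar_smul_right, ff,
          fv]
        simpa using s1
      · have := H v hv
        rw [refl_apply, polar_sub_right, polar_smul_right, polar_add_right, polar_smul_right,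
          polar_add_left, polar_smul_left, s2 v hv, hf v hv, Qv v hv, polar_self', e1] at this
        simp [hN, s1, R.two] at this
    · exact ⟨s, hs, s1, s2⟩
  obtain ⟨b, b0, z, hz, z0, g, hg, -, -, e⟩ := decomp h hR hd hs s2
  have zg : z + g ∈ Φ := e ▸ R.smul hs b0
  have Qg : Q g = 0 := sing hS R h hR hd hm (Submodule.subset_span hz) hg zg (nO z hz z0)
  have fz : polar Q f z = 0 := by rw [polar_comm]; exact hf z hz
  have be : polar Q f g ≠ 0 := by
    have := congrArg (polar Q f) e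
    rw [polar_smul_right, polar_add_right, fz, zero_add, smul_eq_mul] at this
    exact this ▸ mul_ne_zero b0 s1
  obtain ⟨v, hv, e1, hvz⟩ := exists_norm hF R h hd hz
  have key : ∀ c ∈ k, c ≠ 0 → polar Q v z + c * polar Q f g = 0 := fun c hc c0 => by
    have h1 := R.inv _ (line v hv e1 c hc) _ zg
    rw [refl_apply, Qv v hv, e1, polar_add_left, polar_smul_left, polar_add_right, polar_add_right,
      hg v hv, fz, add_zero, zero_add, smul_eq_mul] at h1
    set t := N⁻¹ * (polar Q v z + c * polar Q f g) with ht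
    have h2 : Q (g - (t * c) • f) = 0 := by
      refine sing hS R h hR hd hm (z := z - t • v) (Submodule.sub_mem _
        (Submodule.subset_span hz) (Submodule.smul_mem _ _ (Submodule.subset_span hv)))
        (fun x hx => ?_) ?_ fun H => ?_
      · rw [polar_sub_right, polar_smul_right, hg x hx, hf x hx, smul_zero, sub_zero]
      · convert h1 using 1
        module
      · have h3 := H v hv
        rw [polar_sub_right, polar_smul_right, polar_self', e1, smul_eq_mul] at h3
        have tk : t ∈ k := by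
          have : t = polar Q v z / N / 2 := by
            have := R.two
            field_simp
            linear_combination -h3
          rw [this]
          exact k.div_mem (polar_mem h.val hv hz) (ofNat_mem k 2)
        have h4 : z - t • v = 0 := by
          by_contra h4
          exact nO _ (Λ.sub_mem hz (Λ.smul_mem (⟨t, tk⟩ : k) hv)) h4 H
        have t0 : t ≠ 0 := by
          rintro t0
          rw [t0, zero_smul, sub_zero] at h4
          exact z0 h4
        refine hvz (Submodule.mem_span_singleton.2 ⟨⟨t⁻¹, k.inv_mem tk⟩, ?_⟩)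
        rw [sub_eq_zero.1 h4, ksmul, inv_smul_smul₀ t0]
    rw [Q_sub, Q_smul, polar_smul_right, Qg, Qf, polar_comm Q g f, smul_eq_mul] at h2
    have h5 : t = 0 := by
      have : t * (c * polar Q f g) = 0 := by linear_combination -h2
      exact (mul_eq_zero.1 this).resolve_right (mul_ne_zero c0 be)
    exact (mul_eq_zero.1 (ht ▸ h5)).resolve_left (inv_ne_zero hN)
  have k1 := key 1 k.one_mem one_ne_zero
  have k2 := key (-1) (k.neg_mem k.one_mem) (neg_ne_zero.2 one_ne_zero)
  exact mul_ne_zero R.two be (by linear_combination k1 - k2)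

/-- The reflection group preserves a spanning form. -/
theorem pres (R : RS Q Φ) {Λ : Submodule k V} (h : Fm Q Φ k N Λ) (hR : Rat Q Φ k)
    (hd : 5 ≤ Nat.card k ∧ 3 ≤ finrank k Λ ∨ 5 ≤ finrank k Λ)
    (hU : Submodule.span K (Λ : Set V) = ⊤) {g : O Q} (hg : g ∈ reflGroup Q Φ) :
    ∀ x ∈ Λ, g x ∈ Λ := by
  have z : ∀ f, Ot Q Λ f → f = 0 := fun f hf =>
    R.nd.2 f fun x => hf.span (hU ▸ Submodule.mem_top)
  induction hg using reflGroup_induction with
  | h1 => exact fun x hx => hx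
  | hmul v hv hq g hg ih =>
    intro x hx
    obtain ⟨a, a0, y, hy, -, f, hf, -, h1, e⟩ := decomp h hR hd hv fun H => hq (by
      rw [z v H, map_zero])
    rw [z f hf, add_zero] at e
    rw [O.mul_apply, ← refl_smul a0, e]
    have := qf_refl h.val h.ne ⟨y, hy⟩ ⟨g x, ih x hx⟩
    exact this ▸ Subtype.property _

/-- Traces of maps preserving a spanning form. -/
theorem trace_mem {Λ : Submodule k V} (h : Fm Q Φ k N Λ)
    (hU : Submodule.span K (Λ : Set V) = ⊤) {g : V →ₗ[K] V} (hg : ∀ x ∈ Λ, g x ∈ Λ) :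
    LinearMap.trace K V g ∈ k := by
  classical
  have := fdE Λ
  let b := Module.finBasis k Λ
  let d := LinearMap.BilinForm.dualBasis _ (qf_nd h) b
  have hd : ∀ i j, polar Q (d i : V) (b j) / N = if j = i then 1 else 0 := fun i j => by
    have e : polar (qf Q N Λ h.val) (d i) (b j) = if j = i then 1 else 0 :=
      LinearMap.BilinForm.apply_dualBasis_left (qf_nd h) b i j
    rw [← qf_polar h.val, e]
    split_ifs <;> rfl
  have li : LinearIndependent K fun i => (b i : V) := by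
    rw [Fintype.linearIndependent_iff]
    intro c hc i
    have e := congrArg (fun x => N⁻¹ * Q.polarBilin (d i : V) x) hc
    simp only [map_sum, map_smul, map_zero, mul_zero, polarBilin_apply_apply, smul_eq_mul,
      Finset.mul_sum] at e
    rw [Finset.sum_eq_single i (fun j _ ji => by
      have := hd i j
      rw [if_neg ji, div_eq_inv_mul] at this
      linear_combination c j * this) (by simp)] at e
    have := hd i i
    rw [if_pos rfl, div_eq_inv_mul] at this
    linear_combination e - c i * this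
  have sp : ⊤ ≤ Submodule.span K (Set.range fun i => (b i : V)) := by
    rw [← hU, Submodule.span_le]
    intro x hx
    have e := congrArg Subtype.val (b.sum_repr ⟨x, hx⟩)
    simp only [AddSubmonoidClass.coe_finsetSum, Submodule.coe_smul] at e
    rw [← e]
    exact Submodule.sum_mem _ fun i _ =>
      Submodule.smul_mem _ (_ : K) (Submodule.subset_span ⟨i, rfl⟩)
  let B := Basis.mk li sp
  have hB : ∀ i x, B.repr x i = polar Q (d i : V) x / N := fun i x => by
    have : B.coord i = N⁻¹ • Q.polarBilin (d i : V) := B.ext fun j => by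
      rw [Basis.coord_apply, Basis.repr_self, Finsupp.single_apply, ← hd i j]
      simp [B, div_eq_inv_mul]
    rw [← Basis.coord_apply, this]
    simp [div_eq_inv_mul]
  rw [LinearMap.trace_eq_matrix_trace K B, Matrix.trace]
  refine k.sum_mem fun i _ => ?_
  rw [Matrix.diag_apply, LinearMap.toMatrix_apply, hB]
  exact polar_mem h.val (d i).2 (hg _ (by simp [B]))

omit [Finite K] [FiniteDimensional K V] in
theorem comm_le_two {G : Type*} [Group G] {H : Subgroup G} (h : H.index = 2) :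
    commutator G ≤ H := by
  rw [commutator_def, Subgroup.commutator_le]
  intro a _ b _
  rw [commutatorElement_def]
  simp only [Subgroup.mul_mem_iff_of_index_two h, inv_mem_iff]
  tauto

theorem comm_le (R : RS Q Φ) {Λ : Submodule k V} (h : Fm Q Φ k N Λ)
    (hU : Submodule.span K (Λ : Set V) = ⊤) (hk : k = ⊤) : commutator (O Q) ≤ reflGroup Q Φ := by
  have mk : ∀ a : K, a ∈ k := fun a => by rw [hk]; exact Subfield.mem_top a
  have all : ∀ x, x ∈ Λ := fun x => by
    have hx : x ∈ Submodule.span K (Λ : Set V) := by rw [hU]; exact Submodule.mem_top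
    induction hx using Submodule.span_induction with
    | mem x hx => exact hx
    | zero => exact Λ.zero_mem
    | add x y _ _ h1 h2 => exact Λ.add_mem h1 h2
    | smul a x _ h1 => exact Λ.smul_mem (⟨a, mk a⟩ : k) h1
  have le : H19.RC.RG Q N ≤ reflGroup Q Φ := by
    rw [H19.RC.RG, Subgroup.closure_le]
    rintro _ ⟨v, h0, e, rfl⟩
    obtain ⟨c, c0, e⟩ := (sqcl_eq_iff h.ne h0).1 e.symm
    exact refl_mem_reflGroup (h.full v (all v) c (mk c) c0 (by rw [e]; ring))
  have i2 := H19.RC.index_RG R.two R.nd (by rw [R.dim]; omega) (.inr (.inr (by rw [R.dim]; omega)))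
    h.ne
  exact (comm_le_two i2).trans le

theorem exists_max {Λ₀ : Submodule k V} (h₀ : Fm Q Φ k N Λ₀) :
    ∃ Λ, Fm Q Φ k N Λ ∧ finrank k Λ₀ ≤ finrank k Λ ∧
      ∀ Λ' : Submodule k V, Fm Q Φ k N Λ' → ¬ Λ < Λ' := by
  have : Finite V := Module.finite_of_finite K
  have : FiniteDimensional k V := Module.Finite.of_finite
  obtain ⟨Λ, ⟨h, hle⟩, hm⟩ := WellFounded.has_min (wellFounded_gt (α := Submodule k V))
    {Λ | Fm Q Φ k N Λ ∧ Λ₀ ≤ Λ} ⟨Λ₀, h₀, le_rfl⟩
  exact ⟨Λ, h, Submodule.finrank_mono hle, fun Λ' h' hlt => hm Λ' ⟨h', hle.trans hlt.le⟩ hlt⟩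

theorem ext_main (hF : JobQF.{u}) (hS : Step.{u}) (R : RS Q Φ) {Λ₀ : Submodule k V}
    (h₀ : Fm Q Φ k N Λ₀) (hR : Rat Q Φ k)
    (hd₀ : 5 ≤ Nat.card k ∧ 3 ≤ finrank k Λ₀ ∨ 5 ≤ finrank k Λ₀) :
    (∀ g ∈ reflGroup Q Φ, tr Q g ∈ k) ∧ (k = ⊤ → commutator (O Q) ≤ reflGroup Q Φ) := by
  obtain ⟨Λ, h, hle, hm⟩ := exists_max h₀
  have hd : 5 ≤ Nat.card k ∧ 3 ≤ finrank k Λ ∨ 5 ≤ finrank k Λ := by omega
  have hU := span_top hF hS R h hR hd hm
  exact ⟨fun g hg => trace_mem (g := g.lin) h hU (pres R h hR hd hU hg), comm_le R h hU⟩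

theorem jobExt : JobExt.{u} := by
  intro hF hS K _ _ V _ _ _ Q Φ R k N Λ₀ h₀ hR hd₀
  exact ext_main hF hS R h₀ hR hd₀

end H1.O7E
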